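import Cfsg.Agent.LargeExtra.Dickson
import Cfsg.Agent.LieClassical.OrthTrans

/-!
# Fixed points of 2-groups of isometries with trivial Dickson invariant (helper10)

`V` a nondegenerate quadratic space over `F₂`, `P ≠ 1` a 2-group of isometries in `E Q`: there is a singular vector `v ≠ 0`
fixed by `P` and orthogonal to all vectors fixed by `P`.
-/

set_option autoImplicit false

namespace Cfsg.Agent.R2.H10.Mon.LinFix

open Module QuadraticMap
open scoped commutatorElement
open Cfsg.Agent.LargeExtra.Dickson (fix mem_fix even_sum)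
open Cfsg.Agent.LieClassical.OrthCore Cfsg.Agent.LieClassical.OrthTrans

variable {V : Type*} [AddCommGroup V] [Module (ZMod 2) V]

theorem z2 (a : ZMod 2) : a = 0 ∨ a = 1 := by revert a; decide

theorem add_self' (v : V) : v + v = 0 := by
  have h : (2 : ZMod 2) • v = v + v := two_smul _ v
  rw [← h, show (2 : ZMod 2) = 0 from rfl, zero_smul]

theorem sub_eq' (v w : V) : v - w = v + w := by
  rw [sub_eq_iff_eq_add, add_assoc, add_self', add_zero]

/-- fixed points modulo an invariant submodule -/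
theorem fix_mod [Finite V] (P : Subgroup (V ≃ₗ[ZMod 2] V)) (hP : IsPGroup 2 P) (A W : Submodule (ZMod 2) V)
    (hA : ∀ g ∈ P, ∀ x ∈ A, g x ∈ A) (hW : ∀ g ∈ P, ∀ x ∈ W, g x ∈ W) (hAW : ¬ W ≤ A) :
    ∃ c ∈ W, c ∉ A ∧ ∀ g ∈ P, g c - c ∈ A := by
  have : Fact (Nat.Prime 2) := ⟨Nat.prime_two⟩
  set X : Submodule (ZMod 2) (V ⧸ A) := W.map A.mkQ with hX
  have hmk : ∀ (g : P) (x : V), (A.mapQ A (g : V ≃ₗ[ZMod 2] V).toLinearMap (fun y hy => hA g g.2 y hy)) (A.mkQ x) =
      A.mkQ ((g : V ≃ₗ[ZMod 2] V) x) := fun g x => rfl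
  let act : MulAction P ↥X :=
    { smul := fun g x => ⟨(A.mapQ A (g : V ≃ₗ[ZMod 2] V).toLinearMap (fun y hy => hA g g.2 y hy)) x, by
        obtain ⟨_, w, hw, rfl⟩ := x
        exact ⟨(g : V ≃ₗ[ZMod 2] V) w, hW g g.2 w hw, rfl⟩⟩
      one_smul := by
        rintro ⟨_, w, hw, rfl⟩
        rfl
      mul_smul := by
        rintro g k ⟨_, w, hw, rfl⟩
        rfl }
  have hfinX : Finite X := Finite.of_surjective (fun w : W => (⟨A.mkQ w, w, w.2, rfl⟩ : X)) (by
    rintro ⟨_, w, hw, rfl⟩
    exact ⟨⟨w, hw⟩, rfl⟩)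
  have hcard : 2 ∣ Nat.card X := by
    obtain ⟨w, hw, hwA⟩ := Set.not_subset.1 hAW
    have h1 : (⟨A.mkQ w, w, hw, rfl⟩ : X) ≠ 0 := by
      intro h
      apply hwA
      have h2 : A.mkQ w = 0 := congrArg Subtype.val h
      rwa [Submodule.mkQ_apply, Submodule.Quotient.mk_eq_zero] at h2
    have h2 : addOrderOf (⟨A.mkQ w, w, hw, rfl⟩ : X) = 2 := by
      apply addOrderOf_eq_prime _ h1
      rw [two_nsmul]
      exact add_self' _
    have h3 := addOrderOf_dvd_natCard (⟨A.mkQ w, w, hw, rfl⟩ : X)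
    rwa [h2] at h3
  have h0 : (0 : X) ∈ MulAction.fixedPoints P X := by
    intro g
    exact Subtype.ext (map_zero (A.mapQ A (g : V ≃ₗ[ZMod 2] V).toLinearMap (fun y hy => hA g g.2 y hy)))
  obtain ⟨b, hb, hb0⟩ := hP.exists_fixed_point_of_prime_dvd_card_of_fixed_point X hcard h0
  obtain ⟨_, w, hw, rfl⟩ := b
  refine ⟨w, hw, ?_, ?_⟩
  · intro hwA
    apply hb0
    apply Subtype.ext
    show (0 : V ⧸ A) = A.mkQ w
    rw [Submodule.mkQ_apply]
    exact ((Submodule.Quotient.mk_eq_zero A).2 hwA).symm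
  · intro g hg
    have h1 := hb ⟨g, hg⟩
    have h2 : A.mkQ (g w) = A.mkQ w := congrArg Subtype.val h1
    rwa [Submodule.mkQ_apply, Submodule.mkQ_apply, Submodule.Quotient.eq] at h2

variable (q : QuadraticForm (ZMod 2) V)

/-- parity of the fixed space -/
theorem even_of_mem_E [FiniteDimensional (ZMod 2) V] (hG : Good q) {g : V ≃ₗ[ZMod 2] V} (hg : g ∈ E q) :
    Even (finrank (ZMod 2) (fix g) + finrank (ZMod 2) V) := by
  have hnd : ∀ v, (∀ w, polarBilin q v w = 0) → v = 0 := by
    intro v hv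
    exact hG.nondeg v hv
  have hsum : ∀ f ∈ O q, ∀ k ∈ O q, Even (finrank (ZMod 2) (fix f) + finrank (ZMod 2) (fix k) +
      finrank (ZMod 2) (fix (f * k)) + finrank (ZMod 2) V) := fun f hf k hk =>
    even_sum q (polarBilin q) (fun u w => by rw [polarBilin_apply_apply, polar]; ring) hnd
      (fun v w => by rw [polarBilin_apply_apply, polarBilin_apply_apply, polar_comm]) f k hf hk
  -- the subgroup of the even elements
  have h1 : Even (finrank (ZMod 2) (fix (1 : V ≃ₗ[ZMod 2] V)) + finrank (ZMod 2) V) := by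
    have e : fix (1 : V ≃ₗ[ZMod 2] V) = ⊤ := by
      rw [eq_top_iff]
      intro v _
      rw [mem_fix]; rfl
    rw [e, finrank_top]
    exact ⟨_, rfl⟩
  let d : O q →* Multiplicative (ZMod 2) :=
    { toFun := fun f => Multiplicative.ofAdd ((finrank (ZMod 2) (fix (f : V ≃ₗ[ZMod 2] V)) + finrank (ZMod 2) V : ℕ) : ZMod 2)
      map_one' := by
        rw [← ofAdd_zero]
        congr 1
        exact (ZMod.natCast_eq_zero_iff_even).2 h1
      map_mul' := by
        intro f k
        rw [← ofAdd_add]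
        congr 1
        have h2 := (ZMod.natCast_eq_zero_iff_even).2 (hsum f f.2 k k.2)
        push_cast at h2 ⊢
        revert h2
        generalize (finrank (ZMod 2) (fix (f : V ≃ₗ[ZMod 2] V)) : ZMod 2) = a
        generalize (finrank (ZMod 2) (fix (k : V ≃ₗ[ZMod 2] V)) : ZMod 2) = b
        generalize (finrank (ZMod 2) (fix ((f : V ≃ₗ[ZMod 2] V) * (k : V ≃ₗ[ZMod 2] V))) : ZMod 2) = c
        generalize (finrank (ZMod 2) V : ZMod 2) = e
        revert a b c e
        decide }
  have h2 : ∀ g (hgO : g ∈ O q), g ∈ ⁅O q, O q⁆ → d ⟨g, hgO⟩ = 1 := by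
    intro g hgO hg'
    have h3 : ⁅O q, O q⁆ ≤ d.ker.map (O q).subtype := by
      rw [Subgroup.commutator_le]
      intro f hf k hk
      refine ⟨⁅(⟨f, hf⟩ : O q), ⟨k, hk⟩⁆, ?_, rfl⟩
      rw [SetLike.mem_coe, MonoidHom.mem_ker, map_commutatorElement, commutatorElement_eq_one_iff_commute]
      exact mul_comm _ _
    obtain ⟨k, hk, rfl⟩ := h3 hg'
    exact hk
  have hgO := E_le_O hg
  rw [← hG.commutator_eq_E] at hg
  have h3 := h2 g hgO hg
  have h4 : ((finrank (ZMod 2) (fix g) + finrank (ZMod 2) V : ℕ) : ZMod 2) = 0 := Multiplicative.ofAdd.injective h3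
  exact (ZMod.natCast_eq_zero_iff_even).1 h4

/-- **A singular vector fixed by `P` and orthogonal to the fixed vectors.** -/
theorem exists_sing [Finite V] (hG : Good q) (P : Subgroup (V ≃ₗ[ZMod 2] V)) (hP : IsPGroup 2 P)
    (hPE : P ≤ E q) (hP1 : P ≠ ⊥) :
    ∃ v : V, v ≠ 0 ∧ q v = 0 ∧ (∀ g ∈ P, g v = v) ∧ ∀ a, (∀ g ∈ P, g a = a) → polar q a v = 0 := by
  have hfd : FiniteDimensional (ZMod 2) V := Module.Finite.of_finite
  have hO : ∀ g ∈ P, ∀ v, q (g v) = q v := fun g hg v => E_le_O (hPE hg) v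
  have hpol : ∀ g ∈ P, ∀ v w, polar q (g v) (g w) = polar q v w := by
    intro g hg v w
    rw [polar, polar, ← map_add, hO g hg, hO g hg, hO g hg]
  have hnd : ∀ v, (∀ w, polar q v w = 0) → v = 0 := fun v hv => hG.nondeg v hv
  have hbil : ∀ u v w, polar q (u + v) w = polar q u w + polar q v w := fun u v w => polar_add_left q u v w
  -- the fixed space and its orthogonal
  let C : Submodule (ZMod 2) V :=
    { carrier := {v | ∀ g ∈ P, g v = v}
      zero_mem' := fun g _ => map_zero g
      add_mem' := fun {a b} ha hb g hg => by rw [map_add, ha g hg, hb g hg]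
      smul_mem' := fun c a ha g hg => by rw [map_smul, ha g hg] }
  let W : Submodule (ZMod 2) V :=
    { carrier := {w | ∀ c ∈ C, polar q w c = 0}
      zero_mem' := fun c _ => by rw [polar_zero_left]
      add_mem' := fun {a b} ha hb c hc => by rw [polar_add_left, ha c hc, hb c hc, add_zero]
      smul_mem' := fun r a ha c hc => by rw [polar_smul_left, ha c hc, smul_zero] }
  have memC : ∀ v, v ∈ C ↔ ∀ g ∈ P, g v = v := fun v => Iff.rfl
  have memW : ∀ v, v ∈ W ↔ ∀ c ∈ C, polar q v c = 0 := fun v => Iff.rfl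
  -- commutators
  have hcomm : ∀ g ∈ P, ∀ v, g v - v ∈ W := by
    intro g hg v c hc
    have h1 := hpol g hg v c
    rw [(memC c).1 hc g hg] at h1
    rw [sub_eq', polar_add_left, h1]
    rcases z2 (polar q v c) with h | h
    · rw [h]; rfl
    · rw [h]; rfl
  obtain ⟨g₀, hg₀, v₀, hv₀⟩ : ∃ g ∈ P, ∃ v, g v ≠ v := by
    by_contra hn
    push Not at hn
    apply hP1
    rw [Subgroup.eq_bot_iff_forall]
    intro g hg
    exact LinearEquiv.ext fun v => hn g hg v
  have hWC : ∀ g ∈ P, ∀ x ∈ W, g x ∈ W := by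
    intro g hg x hx c hc
    have h1 := hpol g hg x c
    rw [(memC c).1 hc g hg] at h1
    rw [h1]
    exact hx c hc
  have hWne : ¬ W ≤ ⊥ := by
    intro h
    have h1 := h (hcomm g₀ hg₀ v₀)
    rw [Submodule.mem_bot, sub_eq_zero] at h1
    exact hv₀ h1
  obtain ⟨a, haW, ha0, hafix⟩ := fix_mod P hP ⊥ W (fun g _ x hx => by
    rw [Submodule.mem_bot] at hx ⊢
    rw [hx, map_zero]) hWC hWne
  rw [Submodule.mem_bot] at ha0
  have haC : a ∈ C := fun g hg => by
    have h1 := hafix g hg
    rw [Submodule.mem_bot, sub_eq_zero] at h1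
    exact h1
  by_cases hex : ∃ r ∈ C, r ∈ W ∧ r ≠ 0 ∧ q r = 0
  · obtain ⟨r, hrC, hrW, hr0, hqr⟩ := hex
    exact ⟨r, hr0, hqr, hrC, fun c hc => by rw [polar_comm]; exact hrW c hc⟩
  exfalso
  push Not at hex
  have hq1 : ∀ r ∈ C, r ∈ W → r ≠ 0 → q r = 1 := fun r h1 h2 h3 => (z2 _).resolve_left (hex r h1 h2 h3)
  have hqa := hq1 a haC haW ha0
  have hadd : ∀ u w, q (u + w) = q u + q w + polar q u w := fun u w => by rw [polar]; ring
  have hR : ∀ r ∈ C, r ∈ W → r = 0 ∨ r = a := by
    intro r hrC hrW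
    by_cases hr : r = 0
    · exact Or.inl hr
    right
    by_contra hra
    have h1 : r + a ≠ 0 := by
      intro h
      apply hra
      rw [← sub_eq', sub_eq_zero] at h
      exact h
    have h2 := hq1 (r + a) (C.add_mem hrC haC) (W.add_mem hrW haW) h1
    rw [hadd, hq1 r hrC hrW hr, hqa, hrW a haC] at h2
    exact absurd h2 (by decide)
  -- `W = {0, a}`
  have hWa : ∀ w ∈ W, w = 0 ∨ w = a := by
    by_contra hn
    push Not at hn
    obtain ⟨w, hw, hw0, hwa⟩ := hn
    have hmem : ∀ x : V, x ∈ Submodule.span (ZMod 2) {a} ↔ x = 0 ∨ x = a := by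
      intro x
      rw [Submodule.mem_span_singleton]
      constructor
      · rintro ⟨c, rfl⟩
        rcases z2 c with rfl | rfl
        · left; rw [zero_smul]
        · right; rw [one_smul]
      · rintro (rfl | rfl)
        · exact ⟨0, zero_smul _ _⟩
        · exact ⟨1, one_smul _ _⟩
    obtain ⟨c, hcW, hca, hcf⟩ := fix_mod P hP (Submodule.span (ZMod 2) {a}) W (fun g hg x hx => by
        rw [hmem] at hx ⊢
        rcases hx with rfl | rfl
        · left; rw [map_zero]
        · right; exact haC g hg) hWC (by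
          intro h
          have h1 := h hw
          rw [hmem] at h1
          rcases h1 with h1 | h1
          · exact hw0 h1
          · exact hwa h1)
    rw [hmem] at hca
    push Not at hca
    have hcC : c ∈ C := by
      intro g hg
      have h1 := hcf g hg
      rw [hmem] at h1
      rcases h1 with h1 | h1
      · rwa [sub_eq_zero] at h1
      · exfalso
        have h2 : g c = c + a := by rw [← h1]; abel
        have h3 := hO g hg c
        rw [h2, hadd, hqa, hcW a haC, add_zero] at h3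
        generalize q c = b at h3
        revert h3 b
        decide
    rcases hR c hcC hcW with h | h
    · exact hca.1 h
    · exact hca.2 h
  -- the elements of `P`
  have hPact : ∀ g ∈ P, ∀ v, g v = v ∨ g v = v + a := by
    intro g hg v
    rcases hWa _ (hcomm g hg v) with h | h
    · left; rwa [sub_eq_zero] at h
    · right; rw [← h]; abel
  have hperp : ∀ g ∈ P, ∀ v, polar q v a = 0 → g v = v := by
    intro g hg v hv
    rcases hPact g hg v with h | h
    · exact h
    · exfalso
      have h3 := hO g hg v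
      rw [h, hadd, hqa, hv, add_zero] at h3
      generalize q v = b at h3
      revert h3 b
      decide
  have hv₀a : polar q v₀ a = 1 := by
    rcases z2 (polar q v₀ a) with h | h
    · exact absurd (hperp g₀ hg₀ v₀ h) hv₀
    · exact h
  have hg₀v : g₀ v₀ = v₀ + a := (hPact g₀ hg₀ v₀).resolve_left hv₀
  -- the fixed space of `g₀` is the orthogonal of `a`
  have hfix : fix g₀ = LinearMap.ker (polarBilin q a) := by
    ext v
    rw [mem_fix, LinearMap.mem_ker, polarBilin_apply_apply, polar_comm]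
    constructor
    · intro h
      rcases z2 (polar q v a) with h1 | h1
      · exact h1
      · exfalso
        have h2 : g₀ (v + v₀) = v + v₀ := by
          apply hperp g₀ hg₀
          rw [polar_add_left, h1, hv₀a]; decide
        rw [map_add, h, hg₀v, ← add_assoc] at h2
        exact ha0 (add_eq_left.1 h2)
    · exact hperp g₀ hg₀ v
  have heven := even_of_mem_E q hG (hPE hg₀)
  have h1 := LinearMap.finrank_range_add_finrank_ker (polarBilin q a)
  have hne : polarBilin q a ≠ 0 := by
    intro h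
    apply ha0
    apply hnd
    intro w
    have := LinearMap.congr_fun h w
    rwa [polarBilin_apply_apply] at this
  have h2 : LinearMap.range (polarBilin q a) = ⊤ := LinearMap.range_eq_top.2 (LinearMap.surjective hne)
  rw [h2, finrank_top, finrank_self, ← hfix] at h1
  rw [Nat.even_iff] at heven
  omega

end Cfsg.Agent.R2.H10.Mon.LinFix
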